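import Mathlib.LinearAlgebra.Semisimple
import Mathlib.LinearAlgebra.Charpoly.ToMatrix
import Mathlib.RingTheory.UniqueFactorizationDomain.NormalizedFactors
import Mathlib.Tactic

/-!
# The Mobius function of the lattice of invariant subspaces of a semisimple endomorphism
-/

set_option autoImplicit false

namespace Cfsg.Agent.Lib.GLFlag.SSLattice

open Finset Polynomial UniqueFactorizationMonoid

variable {F V : Type*} [Field F] [AddCommGroup V] [Module F V] [Finite V]

local notation "Sub" => Submodule F V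

/-- Invariant subspaces. -/
def Inv (T : Module.End F V) (U : Submodule F V) : Prop := ∀ x ∈ U, T x ∈ U

theorem inv_bot (T : Module.End F V) : Inv T (⊥ : Sub) := fun x hx => by
  rw [Submodule.mem_bot] at hx ⊢; rw [hx, map_zero]

theorem inv_top (T : Module.End F V) : Inv T (⊤ : Sub) := fun _ _ => Submodule.mem_top

theorem inv_sup {T : Module.End F V} {U W : Sub} (hU : Inv T U) (hW : Inv T W) : Inv T (U ⊔ W) := by
  intro x hx
  obtain ⟨a, ha, b, hb, rfl⟩ := Submodule.mem_sup.mp hx
  exact Submodule.mem_sup.mpr ⟨T a, hU a ha, T b, hW b hb, (map_add T a b).symm⟩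

theorem inv_inf {T : Module.End F V} {U W : Sub} (hU : Inv T U) (hW : Inv T W) : Inv T (U ⊓ W) :=
  fun x hx => ⟨hU x hx.1, hW x hx.2⟩

noncomputable section

open Classical

/-- All submodules as a finset. -/
def subs : Finset (Submodule F V) := (Set.toFinite (Set.univ : Set (Submodule F V))).toFinset

theorem mem_subs (U : Sub) : U ∈ (subs : Finset Sub) := by simp [subs]

/-- Invariant subspaces below `W`. -/
def below (T : Module.End F V) (W : Submodule F V) : Finset (Submodule F V) :=
  subs.filter fun U => Inv T U ∧ U ≤ W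

theorem mem_below {T : Module.End F V} {W U : Sub} : U ∈ below T W ↔ Inv T U ∧ U ≤ W := by
  simp [below, mem_subs]

/-- Chains of invariant subspaces strictly between `⊥` and `W`. -/
def chains (T : Module.End F V) (W : Submodule F V) : Finset (Finset (Submodule F V)) :=
  subs.powerset.filter fun s => (∀ U ∈ s, Inv T U ∧ ⊥ < U ∧ U < W) ∧ IsChain (· ≤ ·) (s : Set Sub)

theorem mem_chains {T : Module.End F V} {W : Sub} {s : Finset Sub} :
    s ∈ chains T W ↔ (∀ U ∈ s, Inv T U ∧ ⊥ < U ∧ U < W) ∧ IsChain (· ≤ ·) (s : Set Sub) := by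
  simp only [chains, Finset.mem_filter, Finset.mem_powerset, and_iff_right_iff_imp]
  exact fun _ => fun U _ => mem_subs U

/-- The Mobius function of the interval from `⊥` to `W`. -/
def mu (T : Module.End F V) (W : Submodule F V) : ℤ :=
  if W = ⊥ then 1 else ∑ s ∈ chains T W, (-1) ^ (s.card + 1)

theorem mu_bot (T : Module.End F V) : mu T (⊥ : Sub) = 1 := if_pos rfl

theorem empty_mem_chains (T : Module.End F V) (W : Sub) : (∅ : Finset Sub) ∈ chains T W := by
  rw [mem_chains]; simp

theorem sum_mu (T : Module.End F V) {W : Sub} (hW : Inv T W) (hne : W ≠ ⊥) :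
    ∑ U ∈ below T W, mu T U = 0 := by
  have h1 : below T W = insert ⊥ (insert W ((below T W).filter fun U => ⊥ < U ∧ U < W)) := by
    ext U
    simp only [Finset.mem_insert, Finset.mem_filter, mem_below]
    constructor
    · intro h
      rcases eq_or_ne U ⊥ with h0 | h0
      · exact Or.inl h0
      rcases eq_or_ne U W with h1 | h1
      · exact Or.inr (Or.inl h1)
      exact Or.inr (Or.inr ⟨h, bot_lt_iff_ne_bot.mpr h0, lt_of_le_of_ne h.2 h1⟩)
    · rintro (rfl | rfl | h)
      · exact ⟨inv_bot T, bot_le⟩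
      · exact ⟨hW, le_rfl⟩
      · exact h.1
  rw [h1, Finset.sum_insert, Finset.sum_insert]
  rotate_left
  · simp
  · simp only [Finset.mem_insert, Finset.mem_filter, lt_self_iff_false, false_and, and_false, or_false]
    exact fun h => hne h.symm
  rw [mu_bot, mu, if_neg hne]
  rw [← Finset.add_sum_erase _ _ (empty_mem_chains T W)]
  rw [Finset.card_empty, zero_add, pow_one]
  have key : ∑ U ∈ (below T W).filter (fun U => ⊥ < U ∧ U < W), mu T U
      = - ∑ s ∈ (chains T W).erase ∅, (-1 : ℤ) ^ (s.card + 1) := by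
    have h2 : ∀ U ∈ (below T W).filter (fun U => ⊥ < U ∧ U < W),
        mu T U = ∑ s ∈ chains T U, (-1 : ℤ) ^ (s.card + 1) := by
      intro U hU
      rw [Finset.mem_filter] at hU
      rw [mu, if_neg hU.2.1.ne']
    rw [Finset.sum_congr rfl h2, Finset.sum_sigma', ← Finset.sum_neg_distrib]
    refine Finset.sum_bij (fun p _ => insert p.1 p.2) ?_ ?_ ?_ ?_
    · rintro ⟨U, s⟩ hp
      simp only [Finset.mem_sigma, Finset.mem_filter, mem_below, mem_chains] at hp
      obtain ⟨⟨⟨hUi, -⟩, hU0, hUW⟩, hs, hc⟩ := hp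
      rw [Finset.mem_erase, mem_chains]
      refine ⟨Finset.insert_ne_empty _ _, ?_, ?_⟩
      · intro X hX
        rcases Finset.mem_insert.mp hX with rfl | hX
        · exact ⟨hUi, hU0, hUW⟩
        · exact ⟨(hs X hX).1, (hs X hX).2.1, (hs X hX).2.2.trans hUW⟩
      · rw [Finset.coe_insert]
        exact hc.insert fun X hX _ => Or.inr (hs X hX).2.2.le
    · rintro ⟨U, s⟩ hp ⟨U', s'⟩ hp' heq
      simp only [Finset.mem_sigma, Finset.mem_filter, mem_chains] at hp hp'
      have hle : U' ≤ U := by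
        have h : U' ∈ insert U s := by rw [heq]; exact Finset.mem_insert_self _ _
        rcases Finset.mem_insert.mp h with h | h
        · exact h.le
        · exact (hp.2.1 _ h).2.2.le
      have hle' : U ≤ U' := by
        have h : U ∈ insert U' s' := by rw [← heq]; exact Finset.mem_insert_self _ _
        rcases Finset.mem_insert.mp h with h | h
        · exact h.le
        · exact (hp'.2.1 _ h).2.2.le
      obtain rfl := le_antisymm hle' hle
      have hn : U ∉ s := fun h => lt_irrefl _ (hp.2.1 _ h).2.2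
      have hn' : U ∉ s' := fun h => lt_irrefl _ (hp'.2.1 _ h).2.2
      have := congrArg (fun t => Finset.erase t U) heq
      simp only [Finset.erase_insert hn, Finset.erase_insert hn'] at this
      rw [this]
    · intro t ht
      rw [Finset.mem_erase, mem_chains] at ht
      obtain ⟨hne', hs, hc⟩ := ht
      obtain ⟨M, hM, hmax⟩ := Finset.exists_maximal (Finset.nonempty_iff_ne_empty.mpr hne')
      have htop : ∀ X ∈ t, X ≤ M := fun X hX => by
        rcases hc.total hX hM with h | h
        · exact h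
        · exact hmax hX h
      refine ⟨⟨M, t.erase M⟩, ?_, Finset.insert_erase hM⟩
      simp only [Finset.mem_sigma, Finset.mem_filter, mem_below, mem_chains]
      refine ⟨⟨⟨(hs M hM).1, (hs M hM).2.2.le⟩, (hs M hM).2⟩, ?_, hc.mono (by simp)⟩
      intro X hX
      rw [Finset.mem_erase] at hX
      exact ⟨(hs X hX.2).1, (hs X hX.2).2.1, lt_of_le_of_ne (htop X hX.2) hX.1⟩
    · rintro ⟨U, s⟩ hp
      simp only [Finset.mem_sigma, mem_chains] at hp
      have hn : U ∉ s := fun h => lt_irrefl _ (hp.2.1 _ h).2.2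
      rw [Finset.card_insert_of_notMem hn, pow_succ _ (s.card + 1)]
      ring
  rw [key]; ring

/-- A simple invariant subspace. -/
def Simp (T : Module.End F V) (a : Submodule F V) : Prop :=
  Inv T a ∧ a ≠ ⊥ ∧ ∀ U, Inv T U → U ≤ a → U = ⊥ ∨ U = a

theorem exists_simp (T : Module.End F V) {W : Sub} (hW : Inv T W) (hne : W ≠ ⊥) :
    ∃ a, Simp T a ∧ a ≤ W := by
  obtain ⟨a, ha, hmin⟩ := Finset.exists_minimal (s := (below T W).filter (fun U => U ≠ ⊥))
    ⟨W, by simp [mem_below, hW, hne]⟩
  rw [Finset.mem_filter, mem_below] at ha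
  refine ⟨a, ⟨ha.1.1, ha.2, fun U hU hle => ?_⟩, ha.1.2⟩
  rcases eq_or_ne U ⊥ with h | h
  · exact Or.inl h
  · refine Or.inr (le_antisymm hle (hmin ?_ hle))
    simp [mem_below, hU, h, hle.trans ha.1.2]

theorem weisner (T : Module.End F V) {a : Sub} (ha : Simp T a) :
    ∀ (W : Sub), Inv T W → a ≤ W → ∑ U ∈ (below T W).filter (fun U => U ⊔ a = W), mu T U = 0 := by
  intro W
  induction W using WellFoundedLT.induction with
  | ind W ih =>
    intro hW haW
    have h0 := sum_mu T hW (fun h => ha.2.1 (le_bot_iff.mp (h ▸ haW)))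
    rw [← Finset.sum_fiberwise_of_maps_to (g := fun U => U ⊔ a) (t := below T W)] at h0
    swap
    · intro U hU
      rw [mem_below] at hU ⊢
      exact ⟨inv_sup hU.1 ha.1, sup_le hU.2 haW⟩
    rw [← Finset.add_sum_erase _ _ (mem_below.mpr ⟨hW, le_refl W⟩)] at h0
    rw [Finset.sum_eq_zero (s := (below T W).erase W), add_zero] at h0
    · exact h0
    intro W' hW'
    rw [Finset.mem_erase, mem_below] at hW'
    by_cases haW' : a ≤ W'
    · refine Eq.trans (Finset.sum_congr ?_ fun _ _ => rfl) (ih W' (lt_of_le_of_ne hW'.2.2 hW'.1) hW'.2.1 haW')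
      ext U
      simp only [Finset.mem_filter, mem_below]
      constructor
      · rintro ⟨⟨hU, -⟩, h⟩
        exact ⟨⟨hU, h ▸ le_sup_left⟩, h⟩
      · rintro ⟨⟨hU, hle⟩, h⟩
        exact ⟨⟨hU, hle.trans hW'.2.2⟩, h⟩
    · refine Finset.sum_eq_zero fun U hU => absurd ?_ haW'
      rw [Finset.mem_filter] at hU
      exact hU.2 ▸ le_sup_right

/-- Complements of `a` in `W`. -/
def compl' (T : Module.End F V) (W a : Submodule F V) : Finset (Submodule F V) :=
  (below T W).filter fun U => U ⊓ a = ⊥ ∧ U ⊔ a = W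

theorem mem_compl' {T : Module.End F V} {W a U : Sub} :
    U ∈ compl' T W a ↔ Inv T U ∧ U ≤ W ∧ U ⊓ a = ⊥ ∧ U ⊔ a = W := by
  simp [compl', mem_below, and_assoc]

theorem mu_eq_neg (T : Module.End F V) {a W : Sub} (ha : Simp T a) (hW : Inv T W) (haW : a ≤ W) :
    mu T W = - ∑ U ∈ compl' T W a, mu T U := by
  have h := weisner T ha W hW haW
  have e : (below T W).filter (fun U => U ⊔ a = W) = insert W (compl' T W a) := by
    ext U
    simp only [Finset.mem_filter, Finset.mem_insert, mem_below, mem_compl']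
    constructor
    · rintro ⟨⟨hU, hle⟩, he⟩
      rcases ha.2.2 (U ⊓ a) (inv_inf hU ha.1) inf_le_right with h0 | h0
      · exact Or.inr ⟨hU, hle, h0, he⟩
      · refine Or.inl ?_
        rw [← he, sup_eq_left.mpr (inf_eq_right.mp h0)]
    · rintro (rfl | ⟨hU, hle, -, he⟩)
      · exact ⟨⟨hW, le_rfl⟩, sup_eq_left.mpr haW⟩
      · exact ⟨⟨hU, hle⟩, he⟩
  rw [e, Finset.sum_insert] at h
  · linarith
  · rw [mem_compl']
    rintro ⟨-, -, h0, -⟩
    rw [inf_eq_right.mpr haW] at h0
    exact ha.2.1 h0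

/-- Commuting maps between invariant subspaces. -/
abbrev Hom' (T : Module.End F V) (U a : Submodule F V) : Type _ :=
  {φ : ↥U →ₗ[F] ↥a // ∀ (x : ↥U) (h : T x ∈ U), (φ ⟨T x, h⟩ : V) = T (φ x : V)}

instance (T : Module.End F V) (U a : Sub) : Finite (Hom' T U a) :=
  Finite.of_injective (fun φ => (φ.1 : ↥U → ↥a)) fun _ _ h => Subtype.ext (DFunLike.coe_injective h)

/-- The graph map of a linear map. -/
def graphMap {U a : Submodule F V} (φ : ↥U →ₗ[F] ↥a) : ↥U →ₗ[F] V :=
  U.subtype + a.subtype.comp φ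

theorem mem_graph {U a : Sub} {φ : ↥U →ₗ[F] ↥a} {x : V} :
    x ∈ LinearMap.range (graphMap φ) ↔ ∃ u : ↥U, (u : V) + (φ u : V) = x := by
  simp [graphMap, LinearMap.mem_range]

theorem eq_zero_of_disjoint {U a : Sub} (h : U ⊓ a = ⊥) {x : V} (h1 : x ∈ U) (h2 : x ∈ a) : x = 0 := by
  have : x ∈ U ⊓ a := ⟨h1, h2⟩
  rwa [h, Submodule.mem_bot] at this

theorem card_compl' (T : Module.End F V) {a W U₀ : Sub} (ha : Inv T a)
    (h0 : U₀ ∈ compl' T W a) : (compl' T W a).card = Nat.card (Hom' T U₀ a) := by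
  rw [mem_compl'] at h0
  obtain ⟨hU0, hU0W, hdis, hsup⟩ := h0
  rw [← Nat.card_eq_finsetCard]
  symm
  have hmem : ∀ φ : Hom' T U₀ a, LinearMap.range (graphMap φ.1) ∈ compl' T W a := by
    intro φ
    rw [mem_compl']
    refine ⟨?_, ?_, ?_, ?_⟩
    · intro x hx
      obtain ⟨u, rfl⟩ := mem_graph.mp hx
      refine mem_graph.mpr ⟨⟨T u, hU0 _ u.2⟩, ?_⟩
      rw [φ.2 u (hU0 _ u.2), map_add]
    · rintro x hx
      obtain ⟨u, rfl⟩ := mem_graph.mp hx
      rw [← hsup]
      exact Submodule.add_mem_sup u.2 (φ.1 u).2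
    · rw [eq_bot_iff]
      rintro x ⟨hx, hxa⟩
      obtain ⟨u, rfl⟩ := mem_graph.mp hx
      have : (u : V) ∈ a := by simpa using a.sub_mem hxa (φ.1 u).2
      have hu : u = 0 := Subtype.ext (eq_zero_of_disjoint hdis u.2 this)
      simp [hu]
    · apply le_antisymm
      · refine sup_le ?_ (hsup ▸ le_sup_right)
        rintro x hx
        obtain ⟨u, rfl⟩ := mem_graph.mp hx
        rw [← hsup]
        exact Submodule.add_mem_sup u.2 (φ.1 u).2
      · rw [← hsup]
        refine sup_le (fun x hx => ?_) le_sup_right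
        have : x = ((x : V) + (φ.1 ⟨x, hx⟩ : V)) + (-(φ.1 ⟨x, hx⟩ : V)) := by abel
        rw [this]
        exact Submodule.add_mem_sup (mem_graph.mpr ⟨⟨x, hx⟩, rfl⟩) (a.neg_mem (φ.1 _).2)
  refine Nat.card_eq_of_bijective (fun φ => (⟨LinearMap.range (graphMap φ.1), hmem φ⟩ : compl' T W a)) ⟨?_, ?_⟩
  · intro φ ψ h
    have h' : LinearMap.range (graphMap φ.1) = LinearMap.range (graphMap ψ.1) := congrArg Subtype.val h
    apply Subtype.ext
    ext u
    have hu : (u : V) + (φ.1 u : V) ∈ LinearMap.range (graphMap ψ.1) := h' ▸ mem_graph.mpr ⟨u, rfl⟩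
    obtain ⟨w, hw⟩ := mem_graph.mp hu
    have e : (u : V) - w = (ψ.1 w : V) - φ.1 u := by
      rw [sub_eq_sub_iff_add_eq_add, ← hw]; abel
    have hz : (u : V) - w = 0 :=
      eq_zero_of_disjoint hdis (U₀.sub_mem u.2 w.2) (e ▸ a.sub_mem (ψ.1 w).2 (φ.1 u).2)
    obtain rfl : u = w := Subtype.ext (sub_eq_zero.mp hz)
    exact (add_left_cancel hw).symm
  · rintro ⟨U, hU⟩
    rw [mem_compl'] at hU
    obtain ⟨hUi, hUW, hUdis, hUsup⟩ := hU
    have hex : ∀ u : ↥U₀, ∃! y : ↥a, (u : V) + y ∈ U := by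
      intro u
      have hu : (u : V) ∈ U ⊔ a := hUsup ▸ hU0W u.2
      obtain ⟨z, hz, y, hy, hzy⟩ := Submodule.mem_sup.mp hu
      refine ⟨⟨-y, a.neg_mem hy⟩, ?_, ?_⟩
      · show (u : V) + -y ∈ U
        rw [← hzy]; simpa using hz
      · intro y' hy'
        apply Subtype.ext
        have h1 : (u : V) + y' - ((u : V) + -y) ∈ U := U.sub_mem hy' (by rw [← hzy]; simpa using hz)
        have e : (u : V) + y' - ((u : V) + -y) = y' + y := by abel
        rw [e] at h1
        exact eq_neg_of_add_eq_zero_left (eq_zero_of_disjoint hUdis h1 (a.add_mem y'.2 hy))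
    choose f hf huni using hex
    let φ : ↥U₀ →ₗ[F] ↥a :=
      { toFun := f
        map_add' := fun u w => (huni (u + w) (f u + f w) (by
          have := U.add_mem (hf u) (hf w)
          simpa [add_add_add_comm] using this)).symm
        map_smul' := fun c u => (huni (c • u) (c • f u) (by
          have := U.smul_mem c (hf u)
          simpa [smul_add] using this)).symm }
    refine ⟨⟨φ, fun u h => ?_⟩, Subtype.ext ?_⟩
    · have := huni ⟨T u, h⟩ ⟨T (f u : V), ha _ (f u).2⟩ (by simpa using hUi _ (hf u))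
      exact (congrArg Subtype.val this).symm
    · apply le_antisymm
      · intro x hx
        obtain ⟨u, rfl⟩ := mem_graph.mp hx
        exact hf u
      · intro x hx
        have hxW : x ∈ U₀ ⊔ a := hsup ▸ hUW hx
        obtain ⟨z, hz, y, hy, rfl⟩ := Submodule.mem_sup.mp hxW
        refine mem_graph.mpr ⟨⟨z, hz⟩, ?_⟩
        have := huni ⟨z, hz⟩ ⟨y, hy⟩ hx
        show z + (f ⟨z, hz⟩ : V) = z + y
        rw [← this]

/-- Characteristic polynomial of the restriction. -/
def cp (T : Module.End F V) (U : Submodule F V) : F[X] :=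
  if h : Inv T U then (T.restrict h).charpoly else 1

theorem cp_monic (T : Module.End F V) (U : Sub) : (cp T U).Monic := by
  unfold cp; split_ifs
  · exact LinearMap.charpoly_monic _
  · exact monic_one

/-- The multiset of irreducible factors. -/
def P (T : Module.End F V) (U : Submodule F V) : Multiset F[X] := normalizedFactors (cp T U)

theorem cp_mul (T : Module.End F V) {U a W : Sub} (hU : Inv T U) (ha : Inv T a) (hW : Inv T W)
    (hdis : U ⊓ a = ⊥) (hsup : U ⊔ a = W) : cp T W = cp T U * cp T a := by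
  let j : (↥U × ↥a) →ₗ[F] ↥W := LinearMap.codRestrict W (U.subtype.coprod a.subtype)
    fun p => hsup ▸ Submodule.add_mem_sup p.1.2 p.2.2
  have hj : Function.Bijective j := by
    constructor
    · rw [injective_iff_map_eq_zero]
      rintro ⟨u, y⟩ h
      have h' : (u : V) + y = 0 := congrArg Subtype.val h
      have hu : (u : V) ∈ a := by rw [eq_neg_of_add_eq_zero_left h']; exact a.neg_mem y.2
      have hu0 : (u : V) = 0 := eq_zero_of_disjoint hdis u.2 hu
      have hy0 : (y : V) = 0 := by rwa [hu0, zero_add] at h'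
      exact Prod.ext (Subtype.ext hu0) (Subtype.ext hy0)
    · rintro ⟨x, hx⟩
      rw [← hsup] at hx
      obtain ⟨u, hu, y, hy, rfl⟩ := Submodule.mem_sup.mp hx
      exact ⟨(⟨u, hu⟩, ⟨y, hy⟩), rfl⟩
  let e := LinearEquiv.ofBijective j hj
  have hcomm : e.conj ((T.restrict hU).prodMap (T.restrict ha)) = T.restrict hW := by
    ext x
    obtain ⟨p, rfl⟩ := e.surjective x
    rw [LinearEquiv.conj_apply_apply, LinearEquiv.symm_apply_apply]
    show (T.restrict hU p.1 : V) + (T.restrict ha p.2 : V) = T ((p.1 : V) + p.2)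
    rw [map_add]; rfl
  rw [cp, dif_pos hW, cp, dif_pos hU, cp, dif_pos ha, ← hcomm, LinearEquiv.charpoly_conj,
    LinearMap.charpoly_prodMap]

theorem cp_bot (T : Module.End F V) : cp T (⊥ : Sub) = 1 := by
  rw [cp, dif_pos (inv_bot T)]
  refine Polynomial.eq_one_of_monic_natDegree_zero (LinearMap.charpoly_monic _) ?_
  rw [LinearMap.charpoly_natDegree, finrank_bot]

theorem P_mul (T : Module.End F V) {U a W : Sub} (hU : Inv T U) (ha : Inv T a) (hW : Inv T W)
    (hdis : U ⊓ a = ⊥) (hsup : U ⊔ a = W) : P T W = P T U + P T a := by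
  rw [P, cp_mul T hU ha hW hdis hsup, normalizedFactors_mul (cp_monic T U).ne_zero (cp_monic T a).ne_zero]
  rfl

theorem aeval_restrict (T : Module.End F V) {a : Sub} (ha : Inv T a) (p : F[X]) (x : ↥a) :
    ((aeval (T.restrict ha) p) x : V) = aeval T p (x : V) := by
  induction p using Polynomial.induction_on' generalizing x with
  | add p q hp hq => simp [hp, hq]
  | monomial k c =>
    simp only [aeval_monomial, Module.End.mul_apply, Module.algebraMap_end_apply]
    have : ∀ (k : ℕ) (x : ↥a), (((T.restrict ha) ^ k) x : V) = (T ^ k) (x : V) := by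
      intro k
      induction k with
      | zero => intro x; rfl
      | succ k ih => intro x; rw [pow_succ, pow_succ, Module.End.mul_apply, Module.End.mul_apply, ih]; rfl
    rw [Submodule.coe_smul, this]

theorem aeval_mem (T : Module.End F V) {a : Sub} (ha : Inv T a) (p : F[X]) {x : V} (hx : x ∈ a) :
    aeval T p x ∈ a := by
  rw [← aeval_restrict T ha p ⟨x, hx⟩]; exact Subtype.prop _

/-- Simple invariant subspaces have irreducible characteristic polynomial. -/
theorem simp_facts (T : Module.End F V) {a : Sub} (ha : Simp T a) :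
    Irreducible (cp T a) ∧ (∀ (q : F[X]) (v : V), v ∈ a → v ≠ 0 → (aeval T q v = 0 ↔ cp T a ∣ q)) ∧
      ∀ v : V, v ∈ a → v ≠ 0 → ∀ x ∈ a, ∃ q : F[X], aeval T q v = x := by
  obtain ⟨hi, hne, hsimp⟩ := ha
  haveI : Nontrivial ↥a := Submodule.nontrivial_iff_ne_bot.mpr hne
  set S := T.restrict hi with hS
  have hint : IsIntegral F S := Algebra.IsIntegral.isIntegral S
  set f := minpoly F S with hf
  have hgen : ∀ v : V, v ∈ a → v ≠ 0 → ∀ x ∈ a, ∃ q : F[X], aeval T q v = x := by
    intro v hv hv0 x hx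
    let L : F[X] →ₗ[F] V := (LinearMap.applyₗ v).comp (aeval T).toLinearMap
    have hL : LinearMap.range L = a := by
      refine (hsimp _ ?_ ?_).resolve_left ?_
      · rintro y ⟨q, rfl⟩
        refine ⟨X * q, ?_⟩
        simp [L]
      · rintro y ⟨q, rfl⟩
        exact aeval_mem T hi q hv
      · intro h
        apply hv0
        have : v ∈ LinearMap.range L := ⟨1, by simp [L]⟩
        rwa [h, Submodule.mem_bot] at this
    rw [← hL] at hx
    obtain ⟨q, hq⟩ := hx
    exact ⟨q, hq⟩
  have hker : ∀ (q : F[X]) (v : V), v ∈ a → v ≠ 0 → (aeval T q v = 0 ↔ f ∣ q) := by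
    intro q v hv hv0
    constructor
    · intro h
      refine minpoly.dvd F S (LinearMap.ext fun x => Subtype.ext ?_)
      rw [aeval_restrict]
      obtain ⟨r, hr⟩ := hgen v hv hv0 _ x.2
      rw [← hr, ← Module.End.mul_apply, ← map_mul, mul_comm, map_mul, Module.End.mul_apply, h, map_zero]
      simp
    · rintro ⟨r, rfl⟩
      have h := aeval_restrict T hi (f * r) ⟨v, hv⟩
      rw [← hS, map_mul, hf, minpoly.aeval, zero_mul] at h
      simpa using h.symm
  obtain ⟨v, hv, hv0⟩ := a.exists_mem_ne_zero_of_ne_bot hne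
  have hirr : Irreducible f := by
    refine ⟨minpoly.not_isUnit F S, fun g h hgh => ?_⟩
    by_cases h0 : aeval T h v = 0
    · have := (hker h v hv hv0).mp h0
      refine Or.inl ?_
      have hne0 : h ≠ 0 := by
        rintro rfl
        exact minpoly.ne_zero hint (by simpa using hgh)
      obtain ⟨r, hr⟩ := this
      have : f * 1 = f * (g * r) := by rw [mul_one]; nth_rewrite 1 [hgh]; rw [hr]; ring
      exact IsUnit.of_mul_eq_one _ (mul_left_cancel₀ (minpoly.ne_zero hint) this).symm
    · have hg0 : aeval T g (aeval T h v) = 0 := by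
        rw [← Module.End.mul_apply, ← map_mul, ← hgh]
        exact (hker f v hv hv0).mpr dvd_rfl
      have := (hker g _ (aeval_mem T hi h hv) h0).mp hg0
      refine Or.inr ?_
      obtain ⟨r, hr⟩ := this
      have : f * 1 = f * (r * h) := by rw [mul_one]; nth_rewrite 1 [hgh]; rw [hr]; ring
      exact IsUnit.of_mul_eq_one _ (by rw [mul_comm]; exact (mul_left_cancel₀ (minpoly.ne_zero hint) this).symm)
  have hdeg : Module.finrank F ↥a ≤ f.natDegree := by
    let L : ↥(degreeLT F f.natDegree) →ₗ[F] ↥a :=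
      ((LinearMap.applyₗ (⟨v, hv⟩ : ↥a)).comp (aeval S).toLinearMap).comp (degreeLT F f.natDegree).subtype
    have hsurj : Function.Surjective L := by
      rintro ⟨x, hx⟩
      obtain ⟨q, hq⟩ := hgen v hv hv0 x hx
      refine ⟨⟨q %ₘ f, ?_⟩, Subtype.ext ?_⟩
      · rw [mem_degreeLT, ← degree_eq_natDegree (minpoly.ne_zero hint)]
        exact degree_modByMonic_lt q (minpoly.monic hint)
      · show ((aeval S (q %ₘ f)) ⟨v, hv⟩ : V) = x
        rw [aeval_restrict, ← hq]
        have hmod := congrArg (fun p => aeval T p v) (modByMonic_add_div q f)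
        simp only [map_add, LinearMap.add_apply, (hker _ v hv hv0).mpr (dvd_mul_right f (q /ₘ f)), add_zero] at hmod
        exact hmod
    haveI : Module.Finite F ↥(degreeLT F f.natDegree) := Module.Finite.equiv (degreeLTEquiv F f.natDegree).symm
    calc Module.finrank F ↥a = Module.finrank F (LinearMap.range L) := by
          rw [LinearMap.range_eq_top.mpr hsurj, finrank_top]
      _ ≤ Module.finrank F ↥(degreeLT F f.natDegree) := LinearMap.finrank_range_le L
      _ = f.natDegree := by rw [(degreeLTEquiv F f.natDegree).finrank_eq, Module.finrank_fin_fun]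
  have hcp : cp T a = f := by
    rw [cp, dif_pos hi, ← hS]
    refine eq_of_monic_of_dvd_of_natDegree_le (minpoly.monic hint) (LinearMap.charpoly_monic S)
      (LinearMap.minpoly_dvd_charpoly S) ?_
    rw [LinearMap.charpoly_natDegree]
    exact hdeg
  rw [hcp]
  exact ⟨hirr, hker, hgen⟩

theorem P_simp (T : Module.End F V) {a : Sub} (ha : Simp T a) : P T a = {cp T a} := by
  rw [P, normalizedFactors_irreducible (simp_facts T ha).1, (cp_monic T a).normalize_eq_self]

theorem card_hom_simp (T : Module.End F V) {b a : Sub} (hb : Simp T b) (ha : Simp T a) :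
    Nat.card (Hom' T b a) = Nat.card F ^ ((cp T a).natDegree * Multiset.count (cp T a) (P T b)) := by
  obtain ⟨hbirr, hbker, hbgen⟩ := simp_facts T hb
  obtain ⟨hairr, haker, hagen⟩ := simp_facts T ha
  obtain ⟨v, hv, hv0⟩ := b.exists_mem_ne_zero_of_ne_bot hb.2.1
  have hpow : ∀ (φ : Hom' T b a) (q : F[X]) (x : V) (hx : x ∈ b),
      (φ.1 ⟨aeval T q x, aeval_mem T hb.1 q hx⟩ : V) = aeval T q (φ.1 ⟨x, hx⟩ : V) := by
    intro φ q
    induction q using Polynomial.induction_on with
    | C c =>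
      intro x hx
      simp only [aeval_C, Module.algebraMap_end_apply]
      have : (⟨c • x, b.smul_mem c hx⟩ : ↥b) = c • ⟨x, hx⟩ := rfl
      rw [this, map_smul, Submodule.coe_smul]
    | add p q hp hq =>
      intro x hx
      have e : (⟨aeval T (p + q) x, aeval_mem T hb.1 (p + q) hx⟩ : ↥b)
          = ⟨aeval T p x, aeval_mem T hb.1 p hx⟩ + ⟨aeval T q x, aeval_mem T hb.1 q hx⟩ := Subtype.ext (by simp)
      rw [e, map_add, Submodule.coe_add, hp x hx, hq x hx, map_add, LinearMap.add_apply]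
    | monomial k c hk =>
      intro x hx
      have e : C c * X ^ (k + 1) = C c * X ^ k * X := by ring
      simp only [e, map_mul (aeval T) (C c * X ^ k) X, Module.End.mul_apply, aeval_X]
      rw [hk (T x) (hb.1 x hx), φ.2 ⟨x, hx⟩ (hb.1 x hx)]
  have hev : Function.Injective (fun φ : Hom' T b a => φ.1 ⟨v, hv⟩) := by
    intro φ ψ h
    apply Subtype.ext
    ext x
    obtain ⟨q, hq⟩ := hbgen v hv hv0 _ x.2
    have hx : x = ⟨aeval T q v, aeval_mem T hb.1 q hv⟩ := Subtype.ext hq.symm
    rw [hx, hpow φ q v hv, hpow ψ q v hv, show φ.1 ⟨v, hv⟩ = ψ.1 ⟨v, hv⟩ from h]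
  have hcount : Multiset.count (cp T a) (P T b) = if cp T a = cp T b then 1 else 0 := by
    rw [P_simp T hb, Multiset.count_singleton]
  rw [hcount]
  split_ifs with heq
  · rw [mul_one]
    have hdim : Module.finrank F ↥a = (cp T a).natDegree := by
      rw [cp, dif_pos ha.1, LinearMap.charpoly_natDegree]
    rw [← hdim, ← Module.natCard_eq_pow_finrank (K := F) (V := ↥a)]
    refine Nat.card_eq_of_bijective _ ⟨hev, ?_⟩
    intro w
    have hwd : ∀ q r : F[X], aeval T q v = aeval T r v → aeval T q (w : V) = aeval T r (w : V) := by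
      intro q r h
      have h' : cp T b ∣ q - r := (hbker _ v hv hv0).mp (by rw [map_sub, LinearMap.sub_apply, h, sub_self])
      rw [← heq] at h'
      rcases eq_or_ne (w : V) 0 with h0 | h0
      · simp [h0]
      have := (haker _ _ w.2 h0).mpr h'
      rwa [map_sub, LinearMap.sub_apply, sub_eq_zero] at this
    choose Q hQ using fun x : ↥b => hbgen v hv hv0 (x : V) x.2
    let φ : ↥b →ₗ[F] ↥a :=
      { toFun := fun x => ⟨aeval T (Q x) (w : V), aeval_mem T ha.1 _ w.2⟩
        map_add' := fun x y => Subtype.ext (by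
          show aeval T (Q (x + y)) (w : V) = aeval T (Q x) (w : V) + aeval T (Q y) (w : V)
          rw [hwd (Q (x + y)) (Q x + Q y) (by simp [hQ]), map_add, LinearMap.add_apply])
        map_smul' := fun c x => Subtype.ext (by
          show aeval T (Q (c • x)) (w : V) = c • aeval T (Q x) (w : V)
          rw [hwd (Q (c • x)) (C c * Q x) (by simp [hQ])]
          simp) }
    refine ⟨⟨φ, fun x h => ?_⟩, Subtype.ext ?_⟩
    · show aeval T (Q ⟨T x, h⟩) (w : V) = T (aeval T (Q x) (w : V))
      rw [hwd (Q ⟨T x, h⟩) (X * Q x) (by simp [hQ])]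
      simp
    · show aeval T (Q ⟨v, hv⟩) (w : V) = (w : V)
      rw [hwd (Q ⟨v, hv⟩) 1 (by simp [hQ])]
      simp
  · rw [mul_zero, pow_zero, Nat.card_eq_one_iff_unique]
    refine ⟨⟨fun φ ψ => hev ?_⟩, ⟨⟨0, fun x _ => by simp⟩⟩⟩
    have hz : ∀ φ : Hom' T b a, φ.1 ⟨v, hv⟩ = 0 := by
      intro φ
      by_contra h0
      have h0' : (φ.1 ⟨v, hv⟩ : V) ≠ 0 := fun h => h0 (Subtype.ext h)
      have h1 := hpow φ (cp T b) v hv
      have h2 : (⟨aeval T (cp T b) v, aeval_mem T hb.1 (cp T b) hv⟩ : ↥b) = 0 :=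
        Subtype.ext ((hbker _ v hv hv0).mpr dvd_rfl)
      rw [h2, map_zero] at h1
      have hdvd := (haker _ _ (φ.1 ⟨v, hv⟩).2 h0').mp h1.symm
      exact heq (eq_of_monic_of_associated (cp_monic T a) (cp_monic T b) (hairr.associated_of_dvd hbirr hdvd))
    show φ.1 ⟨v, hv⟩ = ψ.1 ⟨v, hv⟩
    rw [hz, hz]

theorem card_hom_sum (T : Module.End F V) {U b U' a : Sub} (hb : Inv T b) (hU' : Inv T U') (ha : Inv T a)
    (hU : Inv T U) (hdis : U' ⊓ b = ⊥) (hsup : U' ⊔ b = U) :
    Nat.card (Hom' T U a) = Nat.card (Hom' T U' a) * Nat.card (Hom' T b a) := by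
  have hl : U' ≤ U := hsup ▸ le_sup_left
  have hr : b ≤ U := hsup ▸ le_sup_right
  rw [← Nat.card_prod]
  refine Nat.card_eq_of_bijective
    (fun φ => ((⟨φ.1.comp (Submodule.inclusion hl), fun x h => φ.2 (Submodule.inclusion hl x) (hl h)⟩ : Hom' T U' a),
      (⟨φ.1.comp (Submodule.inclusion hr), fun x h => φ.2 (Submodule.inclusion hr x) (hr h)⟩ : Hom' T b a))) ⟨?_, ?_⟩
  · intro φ ψ h
    replace h := Prod.ext_iff.mp h
    apply Subtype.ext
    ext x
    obtain ⟨u, hu, y, hy, hxy⟩ := Submodule.mem_sup.mp (hsup.symm ▸ x.2 : (x : V) ∈ U' ⊔ b)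
    have hx : x = Submodule.inclusion hl ⟨u, hu⟩ + Submodule.inclusion hr ⟨y, hy⟩ := Subtype.ext hxy.symm
    have h1 := LinearMap.congr_fun (congrArg Subtype.val h.1) ⟨u, hu⟩
    have h2 := LinearMap.congr_fun (congrArg Subtype.val h.2) ⟨y, hy⟩
    simp only [LinearMap.comp_apply] at h1 h2
    rw [hx, map_add, map_add, h1, h2]
  · rintro ⟨φ, ψ⟩
    let j : (↥U' × ↥b) →ₗ[F] ↥U := (Submodule.inclusion hl).coprod (Submodule.inclusion hr)
    have hj : Function.Bijective j := by
      constructor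
      · rw [injective_iff_map_eq_zero]
        rintro ⟨u, y⟩ h
        have h' : (u : V) + y = 0 := congrArg Subtype.val h
        have hu : (u : V) ∈ b := by rw [eq_neg_of_add_eq_zero_left h']; exact b.neg_mem y.2
        have hu0 : (u : V) = 0 := eq_zero_of_disjoint hdis u.2 hu
        exact Prod.ext (Subtype.ext hu0) (Subtype.ext (by rwa [hu0, zero_add] at h'))
      · intro x
        obtain ⟨u, hu, y, hy, hxy⟩ := Submodule.mem_sup.mp (hsup.symm ▸ x.2 : (x : V) ∈ U' ⊔ b)
        exact ⟨(⟨u, hu⟩, ⟨y, hy⟩), Subtype.ext hxy⟩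
    let e := LinearEquiv.ofBijective j hj
    let χ : ↥U →ₗ[F] ↥a := (φ.1.coprod ψ.1).comp e.symm.toLinearMap
    have hχ : ∀ (u : ↥U') (y : ↥b), χ (j (u, y)) = φ.1 u + ψ.1 y := by
      intro u y
      show (φ.1.coprod ψ.1) (e.symm (e (u, y))) = _
      rw [e.symm_apply_apply]; rfl
    refine ⟨⟨χ, fun x h => ?_⟩, ?_⟩
    · obtain ⟨⟨u, y⟩, rfl⟩ := hj.2 x
      have hT : (⟨T ((j (u, y) : ↥U) : V), h⟩ : ↥U) = j (⟨T u, hU' _ u.2⟩, ⟨T y, hb _ y.2⟩) :=
        Subtype.ext (map_add T (u : V) y)
      rw [hT, hχ, hχ, Submodule.coe_add, Submodule.coe_add, map_add, φ.2 u (hU' _ u.2), ψ.2 y (hb _ y.2)]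
    · refine Prod.ext (Subtype.ext (LinearMap.ext fun u => ?_)) (Subtype.ext (LinearMap.ext fun y => ?_))
      · show χ (Submodule.inclusion hl u) = φ.1 u
        have := hχ u 0
        simpa [j] using this
      · show χ (Submodule.inclusion hr y) = ψ.1 y
        have := hχ 0 y
        simpa [j] using this

theorem exists_compl' (T : Module.End F V) (hss : T.IsSemisimple) {a W : Sub} (ha : Inv T a) (hW : Inv T W)
    (haW : a ≤ W) : (compl' T W a).Nonempty := by
  obtain ⟨q, hq, hc⟩ := Module.End.isSemisimple_iff.mp hss a ha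
  refine ⟨q ⊓ W, mem_compl'.mpr ⟨inv_inf hq hW, inf_le_right, ?_, ?_⟩⟩
  · rw [eq_bot_iff, ← hc.inf_eq_bot]
    exact le_inf inf_le_right (inf_le_left.trans inf_le_left)
  · rw [inf_comm, inf_sup_assoc_of_le q haW, sup_comm, hc.sup_eq_top, inf_top_eq]

theorem finrank_lt_of_compl {a W U : Sub} (ha : a ≠ ⊥) (hd : U ⊓ a = ⊥) (hle : U ≤ W) (hs : U ⊔ a = W) :
    U < W :=
  lt_of_le_of_ne hle fun h => ha (by
    rw [eq_bot_iff, ← hd]
    exact le_inf (by rw [h, ← hs]; exact le_sup_right) le_rfl)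

theorem card_hom (T : Module.End F V) (hss : T.IsSemisimple) {a : Sub} (ha : Simp T a) :
    ∀ (U : Sub), Inv T U →
      Nat.card (Hom' T U a) = Nat.card F ^ ((cp T a).natDegree * Multiset.count (cp T a) (P T U)) := by
  intro U
  induction U using WellFoundedLT.induction with
  | ind U ih =>
    intro hU
    rcases eq_or_ne U ⊥ with rfl | hne
    · rw [P, cp_bot, normalizedFactors_one, Multiset.count_zero, mul_zero, pow_zero, Nat.card_eq_one_iff_unique]
      refine ⟨⟨fun φ ψ => Subtype.ext (LinearMap.ext fun x => ?_)⟩, ⟨⟨0, fun x _ => by simp⟩⟩⟩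
      rw [Subsingleton.elim x 0, map_zero, map_zero]
    · obtain ⟨b, hb, hbU⟩ := exists_simp T hU hne
      obtain ⟨U', hU'⟩ := exists_compl' T hss hb.1 hU hbU
      rw [mem_compl'] at hU'
      obtain ⟨hU'i, hle, hd, hs⟩ := hU'
      rw [card_hom_sum T hb.1 hU'i ha.1 hU hd hs, P_mul T hU'i hb.1 hU hd hs, Multiset.count_add, mul_add, pow_add,
        ih U' (finrank_lt_of_compl hb.2.1 hd hle hs) hU'i, card_hom_simp T hb ha]

/-- The value of the Mobius function. -/
def val (q : ℕ) (s : Multiset F[X]) : ℤ :=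
  ∏ f ∈ s.toFinset, (-1) ^ s.count f * (q : ℤ) ^ (f.natDegree * (s.count f).choose 2)

theorem val_add_singleton (q : ℕ) (s : Multiset F[X]) (f : F[X]) :
    val q (s + {f}) = -((q : ℤ) ^ (f.natDegree * s.count f)) * val q s := by
  have hS : ∀ t : Multiset F[X], t.toFinset ⊆ insert f s.toFinset →
      val q t = ∏ g ∈ insert f s.toFinset, (-1) ^ t.count g * (q : ℤ) ^ (g.natDegree * (t.count g).choose 2) := by
    intro t ht
    refine Finset.prod_subset ht fun g _ hg => ?_
    rw [Multiset.mem_toFinset] at hg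
    simp [Multiset.count_eq_zero.mpr hg]
  rw [hS s (Finset.subset_insert _ _), hS (s + {f})]
  swap
  · intro g hg
    simp only [Multiset.mem_toFinset, Multiset.mem_add, Multiset.mem_singleton, Finset.mem_insert] at hg ⊢
    tauto
  rw [← Finset.mul_prod_erase _ _ (Finset.mem_insert_self f _),
    ← Finset.mul_prod_erase _ (fun g => (-1 : ℤ) ^ s.count g * (q : ℤ) ^ (g.natDegree * (s.count g).choose 2))
      (Finset.mem_insert_self f _)]
  have hrest : ∀ g ∈ (insert f s.toFinset).erase f, (-1 : ℤ) ^ (s + {f}).count g *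
      (q : ℤ) ^ (g.natDegree * ((s + {f}).count g).choose 2) =
      (-1) ^ s.count g * (q : ℤ) ^ (g.natDegree * (s.count g).choose 2) := by
    intro g hg
    rw [Finset.mem_erase] at hg
    simp [Multiset.count_singleton, hg.1]
  rw [Finset.prod_congr rfl hrest, Multiset.count_add, Multiset.count_singleton_self,
    Nat.choose_succ_succ', Nat.choose_one_right, pow_succ, mul_add, pow_add]
  ring

theorem mu_eq_val (T : Module.End F V) (hss : T.IsSemisimple) :
    ∀ (W : Sub), Inv T W → mu T W = val (Nat.card F) (P T W) := by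
  intro W
  induction W using WellFoundedLT.induction with
  | ind W ih =>
    intro hW
    rcases eq_or_ne W ⊥ with rfl | hne
    · rw [mu_bot, P, cp_bot, normalizedFactors_one]
      simp [val]
    · obtain ⟨a, ha, haW⟩ := exists_simp T hW hne
      obtain ⟨U₀, hU₀⟩ := exists_compl' T hss ha.1 hW haW
      have hcard := card_compl' T ha.1 hU₀
      rw [mem_compl'] at hU₀
      obtain ⟨hU₀i, hle₀, hd₀, hs₀⟩ := hU₀
      have hall : ∀ U ∈ compl' T W a, mu T U = val (Nat.card F) (P T U₀) := by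
        intro U hU
        rw [mem_compl'] at hU
        obtain ⟨hUi, hle, hd, hs⟩ := hU
        rw [ih U (finrank_lt_of_compl ha.2.1 hd hle hs) hUi]
        congr 1
        have := (P_mul T hUi ha.1 hW hd hs).symm.trans (P_mul T hU₀i ha.1 hW hd₀ hs₀)
        exact add_right_cancel this
      rw [mu_eq_neg T ha hW haW, Finset.sum_congr rfl hall, Finset.sum_const, hcard, card_hom T hss ha U₀ hU₀i,
        P_mul T hU₀i ha.1 hW hd₀ hs₀, P_simp T ha, val_add_singleton]
      simp

end

end Cfsg.Agent.Lib.GLFlag.SSLattice
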