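import Cfsg.Agent.Lib.GLFlag.SSLattice
import Cfsg.Agent.Lib.GLFlag.Inner
import Mathlib.GroupTheory.Perm.ViaEmbedding
import Mathlib.Tactic

/-!
# The Steinberg character of the general linear group on semisimple elements
-/

set_option autoImplicit false

namespace Cfsg.Agent.Lib.GLFlag.SteinbergSS

open Finset Cfsg Cfsg.Agent.Lib.GLFlag Cfsg.Agent.Lib.GLFlag.SSLattice Polynomial UniqueFactorizationMonoid
open scoped MatrixGroups

noncomputable section

open Classical

/-- The composition attached to a permutation. -/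
def comp {n : ℕ} (κ : Equiv.Perm (Fin n)) : Fin n → ℕ := fun i => 1 + i.val - (κ i).val

theorem sum_comp {n : ℕ} {κ : Equiv.Perm (Fin n)} (h : ∀ i : Fin n, (κ i).val ≤ 1 + i.val) :
    ∑ i, comp κ i = n :=
  sum_shift (lam := fun i : Fin n => 1 + i.val) κ h (by simp [Finset.sum_add_distrib])

/-- The proper boundaries of a composition. -/
def bd {n : ℕ} (κ : Equiv.Perm (Fin n)) : Finset ℕ :=
  (Finset.univ.image (cum (comp κ))).filter fun c => 0 < c ∧ c < n

theorem mem_bd {n : ℕ} {κ : Equiv.Perm (Fin n)} {c : ℕ} :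
    c ∈ bd κ ↔ (∃ j, cum (comp κ) j = c) ∧ 0 < c ∧ c < n := by
  simp [bd]

/-- Admissible permutations. -/
def adm (n : ℕ) : Finset (Equiv.Perm (Fin n)) :=
  Finset.univ.filter fun κ => ∀ i : Fin n, (κ i).val ≤ 1 + i.val

theorem mem_adm {n : ℕ} {κ : Equiv.Perm (Fin n)} : κ ∈ adm n ↔ ∀ i : Fin n, (κ i).val ≤ 1 + i.val := by
  simp [adm]

/-- Extension fixing the last point. -/
def ext {n : ℕ} (κ : Equiv.Perm (Fin n)) : Equiv.Perm (Fin (n + 1)) :=
  (finSuccEquivLast).symm.permCongr (Equiv.optionCongr κ)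

theorem ext_castSucc {n : ℕ} (κ : Equiv.Perm (Fin n)) (i : Fin n) : ext κ i.castSucc = (κ i).castSucc := by
  simp [ext, Equiv.permCongr_apply]

theorem ext_last {n : ℕ} (κ : Equiv.Perm (Fin n)) : ext κ (Fin.last n) = Fin.last n := by
  simp [ext, Equiv.permCongr_apply]

theorem sign_ext {n : ℕ} (κ : Equiv.Perm (Fin n)) : Equiv.Perm.sign (ext κ) = Equiv.Perm.sign κ := by
  simp [ext, Equiv.optionCongr_sign]

theorem ext_injective {n : ℕ} : Function.Injective (ext (n := n)) := by
  intro a b h
  refine Equiv.ext fun i => ?_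
  have := congrArg (fun σ : Equiv.Perm (Fin (n + 1)) => σ i.castSucc) h
  simpa [ext_castSucc] using this

theorem exists_ext {n : ℕ} (κ : Equiv.Perm (Fin (n + 1))) (h : κ (Fin.last n) = Fin.last n) :
    ∃ σ : Equiv.Perm (Fin n), ext σ = κ := by
  have hne : ∀ i : Fin n, κ i.castSucc ≠ Fin.last n := fun i hi =>
    (Fin.castSucc_lt_last i).ne (κ.injective (hi.trans h.symm))
  refine ⟨Equiv.ofBijective (fun i => (κ i.castSucc).castPred (hne i))
    (Finite.injective_iff_bijective.mp fun a b hab => ?_), Equiv.ext fun i => ?_⟩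
  · rw [Fin.castPred_inj] at hab
    exact Fin.castSucc_injective _ (κ.injective hab)
  · induction i using Fin.lastCases with
    | last => rw [ext_last, h]
    | cast i => simp [ext_castSucc]

theorem cum_castSucc {n : ℕ} (f : Fin (n + 1) → ℕ) (j : Fin n) :
    cum f j.castSucc = cum (fun i => f i.castSucc) j := by
  unfold cum
  rw [Finset.sum_filter, Finset.sum_filter, Fin.sum_univ_castSucc]
  simp

theorem cum_last {n : ℕ} (f : Fin (n + 1) → ℕ) : cum f (Fin.last n) = ∑ i, f i := by
  unfold cum
  rw [Finset.filter_true_of_mem fun i _ => Fin.le_last i]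

theorem cum_congr {n : ℕ} {f f' : Fin n → ℕ} (j : Fin n) (h : ∀ k, k ≤ j → f k = f' k) : cum f j = cum f' j :=
  Finset.sum_congr rfl fun k hk => h k (Finset.mem_filter.mp hk).2

theorem ext_mem_adm {m : ℕ} {σ : Equiv.Perm (Fin m)} (h : σ ∈ adm m) : ext σ ∈ adm (m + 1) := by
  rw [mem_adm] at h ⊢
  intro i
  induction i using Fin.lastCases with
  | last => rw [ext_last]; omega
  | cast i => rw [ext_castSucc]; exact h i

theorem of_ext_mem_adm {m : ℕ} {σ : Equiv.Perm (Fin m)} (h : ext σ ∈ adm (m + 1)) : σ ∈ adm m := by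
  rw [mem_adm] at h ⊢
  intro i
  have := h i.castSucc
  rwa [ext_castSucc] at this

/-- Extension moving the last point. -/
def ext' {m : ℕ} (σ : Equiv.Perm (Fin (m + 1))) : Equiv.Perm (Fin (m + 2)) :=
  ext σ * Equiv.swap (Fin.last m).castSucc (Fin.last (m + 1))

theorem ext'_pen {m : ℕ} (σ : Equiv.Perm (Fin (m + 1))) : ext' σ (Fin.last m).castSucc = Fin.last (m + 1) := by
  rw [ext', Equiv.Perm.mul_apply, Equiv.swap_apply_left, ext_last]

theorem ext'_last {m : ℕ} (σ : Equiv.Perm (Fin (m + 1))) :
    ext' σ (Fin.last (m + 1)) = (σ (Fin.last m)).castSucc := by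
  rw [ext', Equiv.Perm.mul_apply, Equiv.swap_apply_right, ext_castSucc]

theorem ext'_other {m : ℕ} (σ : Equiv.Perm (Fin (m + 1))) {i : Fin (m + 1)} (hi : i ≠ Fin.last m) :
    ext' σ i.castSucc = (σ i).castSucc := by
  rw [ext', Equiv.Perm.mul_apply, Equiv.swap_apply_of_ne_of_ne (fun h => hi (Fin.castSucc_injective _ h))
    (Fin.castSucc_lt_last i).ne, ext_castSucc]

theorem ext'_mem_adm {m : ℕ} {σ : Equiv.Perm (Fin (m + 1))} (h : σ ∈ adm (m + 1)) : ext' σ ∈ adm (m + 2) := by
  rw [mem_adm] at h ⊢
  intro i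
  induction i using Fin.lastCases with
  | last =>
    rw [ext'_last]
    have := h (Fin.last m)
    simp only [Fin.val_castSucc, Fin.val_last] at this ⊢
    omega
  | cast i =>
    rcases eq_or_ne i (Fin.last m) with rfl | hi
    · rw [ext'_pen]; simp only [Fin.val_castSucc, Fin.val_last]; omega
    · rw [ext'_other σ hi]; exact h i

theorem adm_succ (m : ℕ) : adm (m + 2) = (adm (m + 1)).image ext ∪ (adm (m + 1)).image ext' := by
  ext κ
  simp only [Finset.mem_union, Finset.mem_image]
  constructor
  · intro hκ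
    by_cases h : κ (Fin.last (m + 1)) = Fin.last (m + 1)
    · obtain ⟨σ, rfl⟩ := exists_ext κ h
      exact Or.inl ⟨σ, of_ext_mem_adm hκ, rfl⟩
    · right
      have hpen : κ (Fin.last m).castSucc = Fin.last (m + 1) := by
        obtain ⟨i, hi⟩ := κ.surjective (Fin.last (m + 1))
        induction i using Fin.lastCases with
        | last => exact absurd hi h
        | cast i =>
          have := mem_adm.mp hκ i.castSucc
          rw [hi] at this
          simp only [Fin.val_castSucc, Fin.val_last] at this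
          have : i = Fin.last m := Fin.ext (by have := i.isLt; simp only [Fin.val_last]; omega)
          rwa [this] at hi
      obtain ⟨σ, hσ⟩ := exists_ext (κ * Equiv.swap (Fin.last m).castSucc (Fin.last (m + 1)))
        (by rw [Equiv.Perm.mul_apply, Equiv.swap_apply_right, hpen])
      have he : ext' σ = κ := by rw [ext', hσ, mul_assoc, Equiv.swap_mul_self, mul_one]
      refine ⟨σ, ?_, he⟩
      rw [mem_adm] at hκ ⊢
      intro i
      rcases eq_or_ne i (Fin.last m) with rfl | hi
      · have := (σ (Fin.last m)).isLt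
        simp only [Fin.val_last]; omega
      · have := hκ i.castSucc
        rw [← he, ext'_other σ hi] at this
        exact this
  · rintro (⟨σ, hσ, rfl⟩ | ⟨σ, hσ, rfl⟩)
    · exact ext_mem_adm hσ
    · exact ext'_mem_adm hσ

theorem bd_ext {m : ℕ} {σ : Equiv.Perm (Fin (m + 1))} (h : σ ∈ adm (m + 1)) :
    bd (ext σ) = insert (m + 1) (bd σ) := by
  have hs := sum_comp (mem_adm.mp h)
  have hs' := sum_comp (mem_adm.mp (ext_mem_adm h))
  have hc : ∀ j : Fin (m + 1), cum (comp (ext σ)) j.castSucc = cum (comp σ) j := fun j => by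
    rw [cum_castSucc]; exact cum_congr j fun k _ => by simp [comp, ext_castSucc]
  ext c
  simp only [Finset.mem_insert, mem_bd]
  constructor
  · rintro ⟨⟨j, hj⟩, h0, hlt⟩
    induction j using Fin.lastCases with
    | last => rw [cum_last, hs'] at hj; omega
    | cast j =>
      rw [hc] at hj
      rcases eq_or_ne c (m + 1) with rfl | hne
      · exact Or.inl rfl
      · exact Or.inr ⟨⟨j, hj⟩, h0, by omega⟩
  · rintro (rfl | ⟨⟨j, hj⟩, h0, hlt⟩)
    · exact ⟨⟨(Fin.last m).castSucc, by rw [hc, cum_last, hs]⟩, by omega, by omega⟩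
    · exact ⟨⟨j.castSucc, by rw [hc, hj]⟩, h0, by omega⟩

theorem bd_ext' {m : ℕ} {σ : Equiv.Perm (Fin (m + 1))} (h : σ ∈ adm (m + 1)) : bd (ext' σ) = bd σ := by
  have hs := sum_comp (mem_adm.mp h)
  have hs' := sum_comp (mem_adm.mp (ext'_mem_adm h))
  have hpen0 : comp (ext' σ) (Fin.last m).castSucc = 0 := by
    simp only [comp, ext'_pen, Fin.val_castSucc, Fin.val_last]; omega
  have hlast : 0 < comp σ (Fin.last m) := by
    have := (σ (Fin.last m)).isLt
    simp only [comp, Fin.val_last]; omega
  have hc : ∀ j : Fin (m + 1), j ≠ Fin.last m → cum (comp (ext' σ)) j.castSucc = cum (comp σ) j := by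
    intro j hj
    rw [cum_castSucc]
    refine cum_congr j fun k hk => ?_
    have hk' : k ≠ Fin.last m := fun hh => hj (le_antisymm (Fin.le_last j) (hh ▸ hk))
    simp [comp, ext'_other σ hk']
  have hp : ∀ f : Fin (m + 1) → ℕ, cum f (Fin.last m) =
      (∑ k ∈ (Finset.univ.erase (Fin.last m)), f k) + f (Fin.last m) := fun f => by
    rw [cum_last, Finset.sum_erase_add _ _ (Finset.mem_univ _)]
  have hpc : cum (comp (ext' σ)) (Fin.last m).castSucc = cum (comp σ) (Fin.last m) - comp σ (Fin.last m) := by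
    rw [cum_castSucc, hp, hp, hpen0, Nat.add_zero, Nat.add_sub_cancel]
    refine Finset.sum_congr rfl fun k hk => ?_
    simp [comp, ext'_other σ (Finset.ne_of_mem_erase hk)]
  have hlt : ∀ j : Fin (m + 1), j ≠ Fin.last m → cum (comp σ) j + comp σ (Fin.last m) ≤ m + 1 := by
    intro j hj
    calc cum (comp σ) j + comp σ (Fin.last m) ≤
        (∑ k ∈ (Finset.univ.erase (Fin.last m)), comp σ k) + comp σ (Fin.last m) := by
          refine Nat.add_le_add_right (Finset.sum_le_sum_of_subset fun k hk => ?_) _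
          rw [Finset.mem_filter] at hk
          exact Finset.mem_erase.mpr ⟨fun hh => hj (le_antisymm (Fin.le_last j) (hh ▸ hk.2)), Finset.mem_univ _⟩
      _ = m + 1 := by rw [← hp, cum_last, hs]
  ext c
  simp only [mem_bd]
  constructor
  · rintro ⟨⟨j, hj⟩, h0, hclt⟩
    induction j using Fin.lastCases with
    | last => rw [cum_last, hs'] at hj; omega
    | cast j =>
      rcases eq_or_ne j (Fin.last m) with rfl | hne
      · rw [hpc, cum_last, hs] at hj
        rcases m with _ | m'
        · omega
        · refine ⟨⟨(Fin.last m').castSucc, ?_⟩, h0, by omega⟩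
          rw [← hj, cum_castSucc, cum_last]
          have := Fin.sum_univ_castSucc (comp σ)
          omega
      · rw [hc j hne] at hj
        exact ⟨⟨j, hj⟩, h0, by have := hlt j hne; omega⟩
  · rintro ⟨⟨j, hj⟩, h0, hclt⟩
    refine ⟨⟨j.castSucc, ?_⟩, h0, by omega⟩
    rw [hc j ?_, hj]
    rintro rfl
    rw [cum_last, hs] at hj; omega

theorem Ioo_succ (m : ℕ) : Finset.Ioo 0 (m + 2) = insert (m + 1) (Finset.Ioo 0 (m + 1)) := by
  ext x; simp only [Finset.mem_insert, Finset.mem_Ioo]; omega

/-- The alternating sum over admissible permutations is an alternating sum over boundary sets. -/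
theorem sum_adm (m : ℕ) : ∀ Φ : Finset ℕ → ℂ,
    ∑ κ ∈ adm (m + 1), ((Equiv.Perm.sign κ : ℤ) : ℂ) * Φ (bd κ) =
      ∑ B ∈ (Finset.Ioo 0 (m + 1)).powerset, (-1 : ℂ) ^ (m - B.card) * Φ B := by
  induction m with
  | zero =>
    intro Φ
    have h1 : adm 1 = {1} := by
      ext κ
      simp [mem_adm, Subsingleton.elim κ 1]
    have h2 : bd (1 : Equiv.Perm (Fin 1)) = ∅ := by
      ext c; simp only [mem_bd, Finset.notMem_empty, iff_false]; omega
    have h3 : Finset.Ioo 0 (0 + 1) = (∅ : Finset ℕ) := by
      ext x; simp only [Finset.mem_Ioo, Finset.notMem_empty, iff_false]; omega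
    rw [h3]
    simp [h1, h2]
  | succ m ih =>
    intro Φ
    rw [adm_succ, Finset.sum_union]
    swap
    · rw [Finset.disjoint_left]
      intro κ h1 h2
      obtain ⟨a, -, rfl⟩ := Finset.mem_image.mp h1
      obtain ⟨b, -, hb⟩ := Finset.mem_image.mp h2
      have := congrArg (fun σ : Equiv.Perm (Fin (m + 2)) => σ (Fin.last (m + 1))) hb
      simp only [ext'_last, ext_last] at this
      exact (Fin.castSucc_lt_last _).ne this
    rw [Finset.sum_image fun _ _ _ _ h => ext_injective h,
      Finset.sum_image (g := ext') fun a _ b _ h => ext_injective (mul_right_cancel (h : ext a *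
        Equiv.swap (Fin.last m).castSucc (Fin.last (m + 1)) = ext b * Equiv.swap (Fin.last m).castSucc (Fin.last (m + 1))))]
    have e1 : ∀ σ ∈ adm (m + 1), ((Equiv.Perm.sign (ext σ) : ℤ) : ℂ) * Φ (bd (ext σ)) =
        ((Equiv.Perm.sign σ : ℤ) : ℂ) * Φ (insert (m + 1) (bd σ)) := fun σ h => by rw [sign_ext, bd_ext h]
    have e2 : ∀ σ ∈ adm (m + 1), ((Equiv.Perm.sign (ext' σ) : ℤ) : ℂ) * Φ (bd (ext' σ)) =
        - (((Equiv.Perm.sign σ : ℤ) : ℂ) * Φ (bd σ)) := fun σ h => by
      rw [bd_ext' h, ext', map_mul, sign_ext, Equiv.Perm.sign_swap (Fin.castSucc_lt_last _).ne]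
      simp
    rw [Finset.sum_congr rfl e1, Finset.sum_congr rfl e2, Finset.sum_neg_distrib,
      ih (fun B => Φ (insert (m + 1) B)), ih Φ, Ioo_succ, Finset.sum_powerset_insert (by simp),
      add_comm (∑ t ∈ (Finset.Ioo 0 (m + 1)).powerset, (-1 : ℂ) ^ (m + 1 - t.card) * Φ t)]
    congr 1
    · refine Finset.sum_congr rfl fun B hB => ?_
      have hn : m + 1 ∉ B := fun h => by simpa using Finset.mem_powerset.mp hB h
      rw [Finset.card_insert_of_notMem hn, Nat.add_sub_add_right]
    · rw [← Finset.sum_neg_distrib]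
      refine Finset.sum_congr rfl fun B hB => ?_
      have := Finset.card_le_card (Finset.mem_powerset.mp hB)
      rw [Nat.card_Ioo] at this
      rw [show m + 1 - B.card = (m - B.card) + 1 by omega, pow_succ]
      ring

variable {n : ℕ} {F : Type*} [Field F]

/-- Vectors supported on the first `c` coordinates. -/
def stdSub (n : ℕ) (F : Type*) [Field F] (c : ℕ) : Submodule F (Fin n → F) where
  carrier := {x | ∀ i : Fin n, c ≤ i.val → x i = 0}
  add_mem' := fun ha hb i hi => by rw [Pi.add_apply, ha i hi, hb i hi, add_zero]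
  zero_mem' := fun _ _ => rfl
  smul_mem' := fun r _ hx i hi => by rw [Pi.smul_apply, hx i hi, smul_zero]

theorem mem_stdSub {c : ℕ} {x : Fin n → F} : x ∈ stdSub n F c ↔ ∀ i : Fin n, c ≤ i.val → x i = 0 := Iff.rfl

theorem stdSub_eq_span {c : ℕ} :
    stdSub n F c = Submodule.span F (Set.range fun j : {j : Fin n // j.val < c} => Pi.single j.1 (1 : F)) := by
  apply le_antisymm
  · intro x hx
    rw [← Finset.univ_sum_single x]
    refine Submodule.sum_mem _ fun i _ => ?_
    by_cases hi : i.val < c
    · have : Pi.single i (x i) = x i • (Pi.single i (1 : F) : Fin n → F) := by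
        ext k; simp [Pi.single_apply]
      rw [this]
      exact Submodule.smul_mem _ _ (Submodule.subset_span ⟨⟨i, hi⟩, rfl⟩)
    · rw [hx i (not_lt.mp hi), Pi.single_zero]; exact Submodule.zero_mem _
  · rw [Submodule.span_le]
    rintro _ ⟨⟨j, hj⟩, rfl⟩ i hi
    exact Pi.single_eq_of_ne (fun h => by subst h; omega) _

theorem single_mem_stdSub {c : ℕ} {j : Fin n} (hj : j.val < c) : (Pi.single j (1 : F) : Fin n → F) ∈ stdSub n F c :=
  fun i hi => Pi.single_eq_of_ne (fun h => by subst h; omega) _

theorem finrank_stdSub {c : ℕ} (hc : c ≤ n) : Module.finrank F ↥(stdSub n F c) = c := by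
  rw [stdSub_eq_span, finrank_span_eq_card]
  · rw [← Fintype.card_congr (Fin.castLEquiv hc), Fintype.card_fin]
  · have h := (Pi.basisFun F (Fin n)).linearIndependent.comp (fun j : {j : Fin n // j.val < c} => j.1)
      Subtype.val_injective
    simpa [Function.comp_def] using h

theorem finrank_map_inj {f : (Fin n → F) →ₗ[F] (Fin n → F)} (hf : Function.Injective f)
    (U : Submodule F (Fin n → F)) : Module.finrank F ↥(U.map f) = Module.finrank F ↥U :=
  (Submodule.equivMapOfInjective f hf U).finrank_eq.symm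

/-- Flags of the given dimensions. -/
abbrev Flag (n : ℕ) (F : Type*) [Field F] (B : Finset ℕ) : Type _ :=
  {W : ↥B → Submodule F (Fin n → F) //
    (∀ c : ↥B, Module.finrank F ↥(W c) = c.1) ∧ ∀ c d : ↥B, c.1 ≤ d.1 → W c ≤ W d}

/-- Every flag is the image of the standard one. -/
theorem exists_flag_frame {B : Finset ℕ} (W : Flag n F B) :
    ∃ x : GL (Fin n) F, ∀ c : ↥B, (stdSub n F c.1).map (Matrix.mulVecLin (x : Matrix (Fin n) (Fin n) F)) = W.1 c := by
  have key : ∀ k ≤ n, ∃ b : Fin k → (Fin n → F), LinearIndependent F b ∧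
      ∀ (i : Fin k) (c : ↥B), i.val < c.1 → b i ∈ W.1 c := by
    intro k
    induction k with
    | zero => exact fun _ => ⟨Fin.elim0, linearIndependent_empty_type, fun i => i.elim0⟩
    | succ k ih =>
      intro hk
      obtain ⟨b, hb, hmem⟩ := ih (by omega)
      let T : Submodule F (Fin n → F) := ⨅ c : {c : ↥B // k < c.1}, W.1 c.1
      have hT : k < Module.finrank F ↥T := by
        by_cases hne : (B.filter fun c => k < c).Nonempty
        · have hc0 := Finset.min'_mem _ hne
          rw [Finset.mem_filter] at hc0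
          have : T = W.1 ⟨_, hc0.1⟩ := by
            apply le_antisymm
            · exact iInf_le (fun c : {c : ↥B // k < c.1} => W.1 c.1) ⟨⟨_, hc0.1⟩, hc0.2⟩
            · refine le_iInf fun c => W.2.2 _ _ ?_
              exact Finset.min'_le _ _ (Finset.mem_filter.mpr ⟨c.1.2, c.2⟩)
          rw [this, W.2.1]
          exact hc0.2
        · have : T = ⊤ := by
            refine iInf_eq_top.mpr fun c => ?_
            exact absurd ⟨c.1.1, Finset.mem_filter.mpr ⟨c.1.2, c.2⟩⟩ hne
          rw [this, finrank_top, Module.finrank_fin_fun]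
          omega
      obtain ⟨v, hvT, hv⟩ : ∃ v ∈ T, v ∉ Submodule.span F (Set.range b) := by
        apply Set.not_subset.mp
        intro hle
        have := Submodule.finrank_mono (s := T) (t := Submodule.span F (Set.range b)) hle
        rw [finrank_span_eq_card hb, Fintype.card_fin] at this
        omega
      refine ⟨Fin.snoc b v, hb.finSnoc hv, fun i c hi => ?_⟩
      induction i using Fin.lastCases with
      | last =>
        rw [Fin.snoc_last]
        exact (Submodule.mem_iInf _).mp hvT ⟨c, by simpa using hi⟩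
      | cast i =>
        rw [Fin.snoc_castSucc]
        exact hmem i c hi
  obtain ⟨b, hb, hmem⟩ := key n le_rfl
  let M : Matrix (Fin n) (Fin n) F := Matrix.of fun i j => b j i
  have hM : IsUnit M := by
    rw [← Matrix.linearIndependent_cols_iff_isUnit]
    exact hb
  refine ⟨hM.unit, fun c => ?_⟩
  rw [hM.unit_spec]
  have hcn : c.1 ≤ n := by
    have := Submodule.finrank_le (W.1 c)
    rwa [W.2.1, Module.finrank_fin_fun] at this
  have hinj : Function.Injective M.mulVecLin := Matrix.mulVec_injective_iff_isUnit.mpr hM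
  refine Submodule.eq_of_le_of_finrank_le ?_ ?_
  · rw [stdSub_eq_span, Submodule.map_span_le]
    rintro _ ⟨⟨j, hj⟩, rfl⟩
    have : M.mulVecLin (Pi.single j (1 : F)) = b j := by
      ext i; simp [M]
    rw [this]
    exact hmem j c hj
  · rw [W.2.1, finrank_map_inj hinj, finrank_stdSub hcn]

theorem mem_parabolic_iff {κ : Equiv.Perm (Fin n)} (hκ : κ ∈ adm n) (g : GL (Fin n) F) :
    g ∈ parabolicGL n F (comp κ) ↔
      ∀ c ∈ bd κ, (stdSub n F c).map (Matrix.mulVecLin (g : Matrix (Fin n) (Fin n) F)) ≤ stdSub n F c := by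
  have hs := sum_comp (mem_adm.mp hκ)
  have h1 : g ∈ parabolicGL n F (comp κ) ↔
      ∀ c ∈ bd κ, ∀ i j : Fin n, j.val < c → c ≤ i.val → (g : Matrix (Fin n) (Fin n) F) i j = 0 := by
    constructor
    · intro hg c hc i j hj hi
      obtain ⟨⟨a, rfl⟩, -, -⟩ := mem_bd.mp hc
      refine hg ?_
      show compLabel (comp κ) j < compLabel (comp κ) i
      have h2 := (compLabel_le_iff (comp κ) j a).mpr hj
      have h3 : ¬ compLabel (comp κ) i ≤ a.val := fun h => by
        have := (compLabel_le_iff (comp κ) i a).mp h; omega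
      omega
    · intro h i j hlt
      have hlt' : compLabel (comp κ) j < compLabel (comp κ) i := hlt
      let a : Fin n := ⟨compLabel (comp κ) j, compLabel_lt hs j⟩
      have hj : j.val < cum (comp κ) a := (compLabel_le_iff _ j a).mp le_rfl
      have hi : cum (comp κ) a ≤ i.val := by
        by_contra hcon
        have := (compLabel_le_iff (comp κ) i a).mpr (not_le.mp hcon)
        simp only [a] at this
        omega
      exact h _ (mem_bd.mpr ⟨⟨a, rfl⟩, by omega, by have := i.isLt; omega⟩) i j hj hi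
  rw [h1]
  refine forall₂_congr fun c _ => ?_
  rw [stdSub_eq_span, Submodule.map_span_le]
  constructor
  · rintro h _ ⟨⟨j, hj⟩, rfl⟩
    rw [← stdSub_eq_span, mem_stdSub]
    intro i hi
    simpa using h i j hj hi
  · intro h i j hj hi
    have h' := h _ ⟨⟨j, hj⟩, rfl⟩
    rw [← stdSub_eq_span, mem_stdSub] at h'
    simpa using h' i hi

variable [Fintype F]

/-- Invariant flags. -/
abbrev InvFlag (B : Finset ℕ) (g : GL (Fin n) F) : Type _ :=
  {W : Flag n F B // ∀ c, Inv (Matrix.mulVecLin (g : Matrix (Fin n) (Fin n) F)) (W.1 c)}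

theorem mulVecLin_injective (g : GL (Fin n) F) :
    Function.Injective (Matrix.mulVecLin (g : Matrix (Fin n) (Fin n) F)) :=
  Matrix.mulVec_injective_iff_isUnit.mpr g.isUnit

theorem map_mul_sub (a b : GL (Fin n) F) (U : Submodule F (Fin n → F)) :
    U.map (Matrix.mulVecLin ((a * b : GL (Fin n) F) : Matrix (Fin n) (Fin n) F)) =
      (U.map (Matrix.mulVecLin (b : Matrix (Fin n) (Fin n) F))).map
        (Matrix.mulVecLin (a : Matrix (Fin n) (Fin n) F)) := by
  rw [Units.val_mul, Matrix.mulVecLin_mul, Submodule.map_comp]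

theorem fixed_count {κ : Equiv.Perm (Fin n)} (hκ : κ ∈ adm n) (g : GL (Fin n) F) :
    fixedPointCharacter (parabolicGL n F (comp κ)) g = (Nat.card (InvFlag (bd κ) g) : ℂ) := by
  unfold fixedPointCharacter
  congr 1
  have hle : ∀ c ∈ bd κ, c ≤ n := fun c hc => (mem_bd.mp hc).2.2.le
  let img : GL (Fin n) F → Flag n F (bd κ) := fun x =>
    ⟨fun c => (stdSub n F c.1).map (Matrix.mulVecLin (x : Matrix (Fin n) (Fin n) F)), fun c => by
      rw [finrank_map_inj (mulVecLin_injective x), finrank_stdSub (hle _ c.2)],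
      fun c d h => Submodule.map_mono fun v hv i hi => hv i (h.trans hi)⟩
  have himg : ∀ x y : GL (Fin n) F, img x = img y ↔ x⁻¹ * y ∈ parabolicGL n F (comp κ) := by
    intro x y
    rw [mem_parabolic_iff hκ, Subtype.ext_iff, funext_iff]
    constructor
    · intro h c hc
      have e : (stdSub n F c).map (Matrix.mulVecLin (x : Matrix (Fin n) (Fin n) F)) =
          (stdSub n F c).map (Matrix.mulVecLin (y : Matrix (Fin n) (Fin n) F)) := h ⟨c, hc⟩
      rw [map_mul_sub, ← e, ← map_mul_sub, inv_mul_cancel, Units.val_one, Matrix.mulVecLin_one, Submodule.map_id]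
    · rintro h ⟨c, hc⟩
      have e : (stdSub n F c).map (Matrix.mulVecLin ((x⁻¹ * y : GL (Fin n) F) : Matrix (Fin n) (Fin n) F)) =
          stdSub n F c :=
        Submodule.eq_of_le_of_finrank_le (h c hc)
          (by rw [finrank_map_inj (mulVecLin_injective _)])
      have := congrArg (fun U => Submodule.map (Matrix.mulVecLin (x : Matrix (Fin n) (Fin n) F)) U) e
      simp only [← map_mul_sub, mul_inv_cancel_left] at this
      exact this.symm
  let f : GL (Fin n) F ⧸ parabolicGL n F (comp κ) → Flag n F (bd κ) :=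
    Quotient.lift img fun x y h => (himg x y).mpr (QuotientGroup.leftRel_apply.mp h)
  have hf : Function.Bijective f := by
    constructor
    · intro a b
      induction a using QuotientGroup.induction_on with | H x => ?_
      induction b using QuotientGroup.induction_on with | H y => ?_
      exact fun h => QuotientGroup.eq.mpr ((himg x y).mp h)
    · intro W
      obtain ⟨x, hx⟩ := exists_flag_frame W
      exact ⟨x, Subtype.ext (funext hx)⟩
  refine Nat.card_congr (Equiv.subtypeEquiv (Equiv.ofBijective f hf) fun a => ?_)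
  induction a using QuotientGroup.induction_on with | H x => ?_
  rw [MulAction.mem_fixedBy, MulAction.Quotient.smul_mk, smul_eq_mul, ← hf.1.eq_iff]
  show img (g * x) = img x ↔ ∀ c, Inv _ ((img x).1 c)
  rw [Subtype.ext_iff, funext_iff]
  refine forall_congr' fun c => ?_
  show (stdSub n F c.1).map _ = _ ↔ _
  rw [map_mul_sub]
  constructor
  · intro h v hv
    have := Submodule.mem_map_of_mem (f := Matrix.mulVecLin (g : Matrix (Fin n) (Fin n) F)) hv
    rwa [h] at this
  · intro h
    refine Submodule.eq_of_le_of_finrank_le ?_ (by rw [finrank_map_inj (mulVecLin_injective g)])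
    rintro _ ⟨v, hv, rfl⟩
    exact h v hv

theorem card_invFlag {B : Finset ℕ} (hB : B ⊆ Finset.Ioo 0 n) (g : GL (Fin n) F) :
    Nat.card (InvFlag B g) =
      ((chains (Matrix.mulVecLin (g : Matrix (Fin n) (Fin n) F)) ⊤).filter fun s =>
        s.image (fun U : Submodule F (Fin n → F) => Module.finrank F ↥U) = B).card := by
  rw [← Nat.card_eq_finsetCard]
  have hmem : ∀ W : InvFlag B g, Finset.univ.image W.1.1 ∈
      ((chains (Matrix.mulVecLin (g : Matrix (Fin n) (Fin n) F)) ⊤).filter fun s =>
        s.image (fun U : Submodule F (Fin n → F) => Module.finrank F ↥U) = B) := by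
    intro W
    rw [Finset.mem_filter, mem_chains]
    refine ⟨⟨?_, ?_⟩, ?_⟩
    · intro U hU
      obtain ⟨c, -, rfl⟩ := Finset.mem_image.mp hU
      have hc := Finset.mem_Ioo.mp (hB c.2)
      refine ⟨W.2 c, bot_lt_iff_ne_bot.mpr fun h => ?_, lt_top_iff_ne_top.mpr fun h => ?_⟩
      · have := W.1.2.1 c
        rw [h, finrank_bot] at this
        omega
      · have := W.1.2.1 c
        rw [h, finrank_top, Module.finrank_fin_fun] at this
        omega
    · intro U hU U' hU' _
      obtain ⟨c, -, rfl⟩ := Finset.mem_image.mp hU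
      obtain ⟨d, -, rfl⟩ := Finset.mem_image.mp hU'
      rcases le_total c.1 d.1 with h | h
      · exact Or.inl (W.1.2.2 c d h)
      · exact Or.inr (W.1.2.2 d c h)
    · rw [Finset.image_image]
      ext c
      simp [W.1.2.1]
  refine Nat.card_eq_of_bijective (fun W => ⟨_, hmem W⟩) ⟨?_, ?_⟩
  · intro W W' h
    have h' : Finset.univ.image W.1.1 = Finset.univ.image W'.1.1 := congrArg Subtype.val h
    refine Subtype.ext (Subtype.ext (funext fun c => ?_))
    have hc : W.1.1 c ∈ Finset.univ.image W'.1.1 := h' ▸ Finset.mem_image_of_mem _ (Finset.mem_univ c)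
    obtain ⟨d, -, hd⟩ := Finset.mem_image.mp hc
    have : d = c := Subtype.ext (by rw [← W'.1.2.1 d, hd, W.1.2.1])
    rw [← hd, this]
  · rintro ⟨s, hs⟩
    rw [Finset.mem_filter, mem_chains] at hs
    obtain ⟨⟨hs, hch⟩, hB'⟩ := hs
    have hex : ∀ c : ↥B, ∃ U ∈ s, Module.finrank F ↥U = c.1 := fun c => Finset.mem_image.mp (hB' ▸ c.2)
    choose W hWs hWd using hex
    have hmono : ∀ c d : ↥B, c.1 ≤ d.1 → W c ≤ W d := by
      intro c d h
      rcases hch.total (hWs c) (hWs d) with h' | h'
      · exact h'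
      · exact (Submodule.eq_of_le_of_finrank_le h' (by rw [hWd, hWd]; exact h)).ge
    refine ⟨⟨⟨W, hWd, hmono⟩, fun c => (hs _ (hWs c)).1⟩, Subtype.ext ?_⟩
    ext U
    simp only [Finset.mem_image, Finset.mem_univ, true_and]
    constructor
    · rintro ⟨c, rfl⟩; exact hWs c
    · intro hU
      let c : ↥B := ⟨Module.finrank F ↥U, hB' ▸ Finset.mem_image_of_mem _ hU⟩
      refine ⟨c, ?_⟩
      rcases hch.total (hWs c) hU with h' | h'
      · exact Submodule.eq_of_le_of_finrank_le h' (by rw [hWd c])
      · exact (Submodule.eq_of_le_of_finrank_le h' (by rw [hWd c])).symm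

theorem steinberg_eq_mu (g : GL (Fin n) F) :
    unipotentCharacterGL n F (fun _ => 1) g =
      (-1 : ℂ) ^ n * ((mu (Matrix.mulVecLin (g : Matrix (Fin n) (Fin n) F)) ⊤ : ℤ) : ℂ) := by
  set T := Matrix.mulVecLin (g : Matrix (Fin n) (Fin n) F) with hT
  rcases n with _ | m
  · have ht : (⊤ : Submodule F (Fin 0 → F)) = ⊥ := Subsingleton.elim _ _
    rw [ht, mu_bot]
    simp only [unipotentCharacterGL, Fintype.sum_subsingleton _ (1 : Equiv.Perm (Fin 0)), fixedPointCharacter]
    rw [if_pos fun i => i.elim0]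
    haveI : Subsingleton (GL (Fin 0) F) := Units.val_injective.subsingleton
    haveI : Subsingleton (GL (Fin 0) F ⧸ parabolicGL 0 F fun i => 1 + i.val - ((1 : Equiv.Perm (Fin 0)) i).val) :=
      Quotient.instSubsingletonQuotient _
    haveI : Nonempty ↥(MulAction.fixedBy (GL (Fin 0) F ⧸ parabolicGL 0 F fun i => 1 + i.val -
        ((1 : Equiv.Perm (Fin 0)) i).val) g) := ⟨⟨QuotientGroup.mk 1, Subsingleton.elim _ _⟩⟩
    rw [Nat.card_of_subsingleton (Classical.arbitrary _)]
    simp
  · have h0 : unipotentCharacterGL (m + 1) F (fun _ => 1) g =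
        ∑ κ ∈ adm (m + 1), ((Equiv.Perm.sign κ : ℤ) : ℂ) * (Nat.card (InvFlag (bd κ) g) : ℂ) := by
      unfold unipotentCharacterGL adm
      rw [Finset.sum_filter]
      refine Finset.sum_congr rfl fun κ _ => ?_
      split_ifs with h
      · rw [← fixed_count (by rw [mem_adm]; exact h)]
        rfl
      · rfl
    rw [h0, sum_adm m (fun B => (Nat.card (InvFlag B g) : ℂ))]
    have hne : (⊤ : Submodule F (Fin (m + 1) → F)) ≠ ⊥ := top_ne_bot
    rw [mu, if_neg hne, Int.cast_sum, Finset.mul_sum,
      ← Finset.sum_fiberwise_of_maps_to (g := fun s : Finset (Submodule F (Fin (m + 1) → F)) =>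
        s.image fun U : Submodule F (Fin (m + 1) → F) => Module.finrank F ↥U)
        (t := (Finset.Ioo 0 (m + 1)).powerset)]
    · refine Finset.sum_congr rfl fun B hB => ?_
      rw [card_invFlag (Finset.mem_powerset.mp hB) g, ← hT]
      rw [mul_comm, ← nsmul_eq_mul, ← Finset.sum_const]
      refine Finset.sum_congr rfl fun s hs => ?_
      rw [Finset.mem_filter, mem_chains] at hs
      have hcard : s.card = B.card := by
        rw [← hs.2, Finset.card_image_of_injOn]
        intro U hU U' hU' h
        rcases hs.1.2.total hU hU' with h' | h'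
        · exact Submodule.eq_of_le_of_finrank_le h' (le_of_eq h.symm)
        · exact (Submodule.eq_of_le_of_finrank_le h' (le_of_eq h)).symm
      have hle := Finset.card_le_card (Finset.mem_powerset.mp hB)
      rw [Nat.card_Ioo] at hle
      push_cast
      rw [hcard, ← pow_add,
        show m + 1 + (B.card + 1) = (m - B.card) + 2 * (B.card + 1) by omega, pow_add, pow_mul]
      simp
    · intro s hs
      rw [mem_chains] at hs
      rw [Finset.mem_powerset]
      intro c hc
      obtain ⟨U, hU, rfl⟩ := Finset.mem_image.mp hc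
      rw [Finset.mem_Ioo]
      refine ⟨Nat.pos_of_ne_zero fun h => (hs.1 U hU).2.1.ne' (Submodule.finrank_eq_zero.mp h), ?_⟩
      have := Submodule.finrank_lt (hs.1 U hU).2.2.ne
      rwa [Module.finrank_fin_fun] at this

theorem cp_top {V : Type*} [AddCommGroup V] [Module F V] [Finite V] (T : Module.End F V) :
    cp T (⊤ : Submodule F V) = T.charpoly := by
  rw [cp, dif_pos (inv_top T), ← LinearEquiv.charpoly_conj (Submodule.topEquiv (R := F) (M := V))]
  congr 1

theorem semisimple_of_coprime (p : ℕ) [Fact p.Prime] [CharP F p] (g : GL (Fin n) F)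
    (hg : (orderOf g).Coprime p) :
    Module.End.IsSemisimple (Matrix.mulVecLin (g : Matrix (Fin n) (Fin n) F)) := by
  refine Module.End.isSemisimple_of_squarefree_aeval_eq_zero (p := (X ^ orderOf g - 1 : F[X])) ?_ ?_
  · refine Separable.squarefree (X_pow_sub_one_separable_iff.mpr ?_)
    intro h
    rw [CharP.cast_eq_zero_iff F p] at h
    exact (Fact.out : p.Prime).one_lt.ne' (Nat.Coprime.eq_one_of_dvd hg.symm h)
  · have h : (g : Matrix (Fin n) (Fin n) F) ^ orderOf g = 1 := by
      rw [← Units.val_pow_eq_pow_val, pow_orderOf_eq_one, Units.val_one]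
    rw [map_sub, map_pow, aeval_X, map_one, sub_eq_zero]
    have h2 := congrArg Matrix.toLinAlgEquiv' h
    rw [map_pow, map_one] at h2
    exact h2

theorem steinberg_semisimple (p : ℕ) [Fact p.Prime] [CharP F p] (g : GL (Fin n) F)
    (hg : (orderOf g).Coprime p) :
    unipotentCharacterGL n F (fun _ => 1) g =
      ∏ f ∈ (normalizedFactors (g : Matrix (Fin n) (Fin n) F).charpoly).toFinset,
        (-1 : ℂ) ^ ((f.natDegree - 1) * (normalizedFactors (g : Matrix (Fin n) (Fin n) F).charpoly).count f) *
          (Fintype.card F : ℂ) ^ (f.natDegree * (normalizedFactors (g : Matrix (Fin n) (Fin n) F).charpoly).count f *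
            ((normalizedFactors (g : Matrix (Fin n) (Fin n) F).charpoly).count f - 1) / 2) := by
  rw [steinberg_eq_mu, mu_eq_val _ (semisimple_of_coprime p g hg) ⊤ (inv_top _), P, cp_top,
    Matrix.charpoly_mulVecLin, Nat.card_eq_fintype_card]
  set χ := (g : Matrix (Fin n) (Fin n) F).charpoly with hχ
  set s := normalizedFactors χ with hs
  have hmon : ∀ f ∈ s, f.Monic := fun f hf => by
    have := monic_normalize (prime_of_normalized_factor f hf).ne_zero
    rwa [normalize_normalized_factor f hf] at this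
  have hn : n = ∑ f ∈ s.toFinset, s.count f * f.natDegree := by
    have h1 : χ.natDegree = n := by rw [hχ, Matrix.charpoly_natDegree_eq_dim, Fintype.card_fin]
    have h2 : s.prod = χ := eq_of_monic_of_associated (by simpa using monic_multiset_prod_of_monic s id (by simpa using hmon)) (Matrix.charpoly_monic _) (prod_normalizedFactors (Matrix.charpoly_monic _).ne_zero)
    rw [← h2, natDegree_multiset_prod_of_monic _ hmon] at h1
    rw [← h1, Finset.sum_multiset_map_count]
    simp
  nth_rewrite 1 [hn]
  rw [← Finset.prod_pow_eq_pow_sum, SSLattice.val, Int.cast_prod, ← Finset.prod_mul_distrib]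
  refine Finset.prod_congr rfl fun f hf => ?_
  have hd : 1 ≤ f.natDegree := by
    have hp := prime_of_normalized_factor f (Multiset.mem_toFinset.mp hf)
    exact hp.irreducible.natDegree_pos
  push_cast
  rw [← mul_assoc, ← pow_add]
  congr 1
  · obtain ⟨e, he⟩ : ∃ e, f.natDegree = e + 1 := ⟨f.natDegree - 1, by omega⟩
    rw [he, Nat.add_sub_cancel, show s.count f * (e + 1) + s.count f = e * s.count f + 2 * s.count f by ring, pow_add,
      pow_mul (-1 : ℂ) 2]
    simp
  · congr 1
    rw [Nat.choose_two_right, mul_assoc f.natDegree]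
    exact (Nat.mul_div_assoc _ (Nat.even_mul_pred_self _).two_dvd).symm

end

end Cfsg.Agent.Lib.GLFlag.SteinbergSS
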